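-- Team project SUG (S2412): PSU_n(q) is generated by two elements.  Interface file (helper60).
import Mathlib
import Cfsg.Prelude.Def_Classical
import Cfsg.Prelude.Def_ClassicalGeometry

/-!
# S2412 (team project SUG): package interface

`SU_n(q) = Cfsg.SU n F q` for the diagonal form `h(u, v) = Σ u_i v_i ^ q` over `F`, `|F| = q²`.
`T_{v,c} = Cfsg.unitaryTransvection n q v c` (`x ↦ x + c h(x, v) v`), a unitary transvection when
`v` is isotropic and `c ^ q = -c`.  `Ctr K v`: `v` is a centre of `K`, i.e. `K` contains the whole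
root group at the isotropic vector `v`.
-/

set_option autoImplicit false

namespace Cfsg.Agent.Lib.Helper60.SUG

open Matrix

universe u

section defs

variable {F : Type u} [Field F] {q n : ℕ}

/-- The matrix of an element of `SU_n`. -/
abbrev mat (g : ↥(Cfsg.SU n F q)) : Matrix (Fin n) (Fin n) F :=
  ((g : Matrix.SpecialLinearGroup (Fin n) F) : Matrix (Fin n) (Fin n) F)

/-- `v` is a centre of `K`: a nonzero isotropic vector such that `K` contains every element of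
`SU_n` whose matrix is a transvection `T_{v,c}` with `c ^ q = -c`. -/
def Ctr (K : Subgroup ↥(Cfsg.SU n F q)) (v : Fin n → F) : Prop :=
  v ≠ 0 ∧ Cfsg.hermForm n F q v v = 0 ∧
    ∀ g : ↥(Cfsg.SU n F q), ∀ c : F, c ^ q = -c →
      mat g = Cfsg.unitaryTransvection n q v c → g ∈ K

/-- `v` is supported on the coordinates `< m`. -/
def Supp (m : ℕ) (v : Fin n → F) : Prop := ∀ i : Fin n, m ≤ (i : ℕ) → v i = 0

end defs

/-- `SU_n(q)` is generated by two elements. -/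
def TwoGen (n : ℕ) (F : Type u) [Field F] (q : ℕ) : Prop :=
  ∃ a b : ↥(Cfsg.SU n F q), Subgroup.closure ({a, b} : Set ↥(Cfsg.SU n F q)) = ⊤

/-! ## Generic packages -/

/-- [QUOT] two generators of `SU_n` give two generators of `PSU_n`. -/
def PkgQuot : Prop :=
  ∀ {F : Type u} [Field F] (n q : ℕ), TwoGen n F q →
    ∃ a b : Cfsg.PSU n F q, Subgroup.closure ({a, b} : Set (Cfsg.PSU n F q)) = ⊤

/-- [CONJ] the centres of `K` are `K`-stable (`g T_{v,c} g⁻¹ = T_{g v, c}`). -/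
def PkgConj : Prop :=
  ∀ {F : Type u} [Field F] [Fintype F] {q n : ℕ}, Fintype.card F = q ^ 2 →
    ∀ (K : Subgroup ↥(Cfsg.SU n F q)) (v : Fin n → F), Ctr K v →
    ∀ g ∈ K, Ctr K (mat g *ᵥ v)

/-- [SMUL] the centres of `K` are stable under nonzero scalars
(`T_{a v, c} = T_{v, a ^ (q + 1) c}`). -/
def PkgSmul : Prop :=
  ∀ {F : Type u} [Field F] [Fintype F] {q n : ℕ}, Fintype.card F = q ^ 2 →
    ∀ (K : Subgroup ↥(Cfsg.SU n F q)) (v : Fin n → F), Ctr K v →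
    ∀ a : F, a ≠ 0 → Ctr K (a • v)

/-- [LINE] the centres of `K` are closed under hyperbolic lines: for centres `e`, `f` with
`h(e, f) ≠ 0` every isotropic `a e + b f ≠ 0` is a centre (`a ≠ 0`: `c := b / (a h(e,f))` has
`c ^ q = -c` and `T_{f,c} e = (a e + b f) / a`; `a = 0`: [SMUL]). -/
def PkgLine : Prop :=
  ∀ {F : Type u} [Field F] [Fintype F] {q n : ℕ}, Fintype.card F = q ^ 2 →
    ∀ (K : Subgroup ↥(Cfsg.SU n F q)) (e f : Fin n → F), Ctr K e → Ctr K f →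
    Cfsg.hermForm n F q e f ≠ 0 → ∀ a b : F, a • e + b • f ≠ 0 →
    Cfsg.hermForm n F q (a • e + b • f) (a • e + b • f) = 0 → Ctr K (a • e + b • f)

/-- [TOP] if every nonzero isotropic vector is a centre of `K` then `K = ⊤` (landed S0780). -/
def PkgTop : Prop :=
  ∀ {F : Type u} [Field F] [Fintype F] {q n : ℕ}, Fintype.card F = q ^ 2 → 3 ≤ n →
    ¬ (n = 3 ∧ q = 2) → ∀ (K : Subgroup ↥(Cfsg.SU n F q)),
    (∀ v : Fin n → F, v ≠ 0 → Cfsg.hermForm n F q v v = 0 → Ctr K v) → K = ⊤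

/-- [FILL] a single transvection `T_{v,c₀} ∈ K`, `c₀ ≠ 0`, and `s ∈ K` with `s v = μ v` such that
the powers of `μ ^ (q + 1)` span the fixed field of `x ↦ x ^ q` additively, make `v` a centre
(`s ^ j T_{v,c₀} s ^ (-j) = T_{v, μ ^ (j (q + 1)) c₀}`, products add the parameters, and every
`c` with `c ^ q = -c` is `c₀ x` with `x ^ q = x`). -/
def PkgFill : Prop :=
  ∀ {F : Type u} [Field F] [Fintype F] {q n : ℕ}, Fintype.card F = q ^ 2 →
    ∀ (K : Subgroup ↥(Cfsg.SU n F q)) (v : Fin n → F), v ≠ 0 → Cfsg.hermForm n F q v v = 0 →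
    ∀ (g₀ : ↥(Cfsg.SU n F q)) (c₀ : F), g₀ ∈ K → c₀ ≠ 0 → c₀ ^ q = -c₀ →
    mat g₀ = Cfsg.unitaryTransvection n q v c₀ →
    ∀ (s : ↥(Cfsg.SU n F q)) (μ : F), s ∈ K → mat s *ᵥ v = μ • v →
    (∀ x : F, x ^ q = x →
      x ∈ AddSubmonoid.closure (Set.range fun j : ℕ => (μ ^ (q + 1)) ^ j)) →
    Ctr K v

/-- [STEP] (the induction step; coordinates `0, …, n - 1`, `E_m` = vectors supported on the
coordinates `< m`).  If all isotropic vectors of `E_m` are centres (`m ≥ 2`, and `m ≥ 4` when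
`q = 2`) and some centre `x ∈ E_{m+1}` has `x_m ≠ 0`, then all isotropic vectors of `E_{m+1}` are
centres.  Proof: the transvections centred in `E_m` generate the copy of `SU_m` on `E_m` (landed
S0780 for `m ≥ 3`, `(m, q) ≠ (3, 2)`; `Helper13.su2_inT` for `m = 2`), which is transitive on the
vectors of `E_m` of equal nonzero norm (`Helper13.exists_hermIso_det_map`); an isotropic
`v = w + l e_m`, `l ≠ 0`, has `N(w) = -N(l)`, as has `(l / l') x = w'' + l e_m`; move `w''` to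
`w` and use [CONJ], [SMUL]. -/
def PkgStep : Prop :=
  ∀ {F : Type u} [Field F] [Fintype F] {q n : ℕ}, Fintype.card F = q ^ 2 →
    ∀ (K : Subgroup ↥(Cfsg.SU n F q)) (m : ℕ), 2 ≤ m → m + 1 ≤ n → (q = 2 → 4 ≤ m) →
    (∀ v : Fin n → F, v ≠ 0 → Cfsg.hermForm n F q v v = 0 → Supp m v → Ctr K v) →
    (∃ x : Fin n → F, Ctr K x ∧ Supp (m + 1) x ∧ ∃ i : Fin n, (i : ℕ) = m ∧ x i ≠ 0) →
    ∀ v : Fin n → F, v ≠ 0 → Cfsg.hermForm n F q v v = 0 → Supp (m + 1) v → Ctr K v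

/-- The conclusion of [CHAIN]: all isotropic vectors of `E_m` are centres and for every
`m ≤ j < n` there is a centre in `E_{j+1}` with nonzero `j`-th coordinate; then `K = ⊤`. -/
def Chain : Prop :=
  ∀ {F : Type u} [Field F] [Fintype F] {q n : ℕ}, Fintype.card F = q ^ 2 → 3 ≤ n →
    ∀ (K : Subgroup ↥(Cfsg.SU n F q)) (m : ℕ), 2 ≤ m → m ≤ n → (q = 2 → 4 ≤ m) →
    (∀ v : Fin n → F, v ≠ 0 → Cfsg.hermForm n F q v v = 0 → Supp m v → Ctr K v) →
    (∀ j : ℕ, m ≤ j → j < n →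
      ∃ x : Fin n → F, Ctr K x ∧ Supp (j + 1) x ∧ ∃ i : Fin n, (i : ℕ) = j ∧ x i ≠ 0) →
    K = ⊤

/-- [CHAIN] induction on `j` with [STEP], then [TOP]. -/
def PkgChain : Prop := PkgStep.{u} → PkgTop.{u} → Chain.{u}

/-! ## The four cases -/

/-- [GEN] `n ≥ 4`, `q ≥ 3`. -/
def PkgGen : Prop :=
  ∀ {F : Type u} [Field F] [Fintype F] {q : ℕ}, IsPrimePow q → Fintype.card F = q ^ 2 →
    ∀ n : ℕ, 4 ≤ n → 3 ≤ q → TwoGen n F q

/-- [Q2] `q = 2`, `n ≥ 5`. -/
def PkgQ2 : Prop :=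
  ∀ {F : Type u} [Field F] [Fintype F], Fintype.card F = 2 ^ 2 →
    ∀ n : ℕ, 5 ≤ n → TwoGen n F 2

/-- [N4Q2] `(n, q) = (4, 2)`. -/
def PkgN4Q2 : Prop :=
  ∀ {F : Type u} [Field F] [Fintype F], Fintype.card F = 2 ^ 2 → TwoGen 4 F 2

/-- [N3] `n = 3`, `q ≥ 3`. -/
def PkgN3 : Prop :=
  ∀ {F : Type u} [Field F] [Fintype F] {q : ℕ}, IsPrimePow q → Fintype.card F = q ^ 2 →
    3 ≤ q → TwoGen 3 F q

/-- The statement of S2412 from the four cases and [QUOT]. -/
theorem s2412_of (hQuot : PkgQuot.{u}) (hGen : PkgGen.{u}) (hQ2 : PkgQ2.{u})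
    (hN4Q2 : PkgN4Q2.{u}) (hN3 : PkgN3.{u})
    {F : Type u} [Field F] [Fintype F] {q : ℕ} (hq : IsPrimePow q)
    (hF : Fintype.card F = q ^ 2) (n : ℕ) (hn : 3 ≤ n) (h32 : n = 3 → q ≠ 2) :
    ∃ a b : Cfsg.PSU n F q, Subgroup.closure ({a, b} : Set (Cfsg.PSU n F q)) = ⊤ := by
  apply hQuot n q
  have hq2 : 2 ≤ q := hq.two_le
  rcases Nat.lt_or_ge n 4 with h4 | h4
  · have hn3 : n = 3 := by omega
    subst hn3
    have hq3 : 3 ≤ q := by
      have := h32 rfl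
      omega
    exact hN3 hq hF hq3
  · rcases Nat.lt_or_ge q 3 with h3 | h3
    · have hq2' : q = 2 := by omega
      subst hq2'
      rcases Nat.lt_or_ge n 5 with h5 | h5
      · have hn4 : n = 4 := by omega
        subst hn4
        exact hN4Q2 hF
      · exact hQ2 hF n h5
    · exact hGen hq hF n h4 h3

end Cfsg.Agent.Lib.Helper60.SUG
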