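-- Team project SUG (S2412): the case [GEN] (n ≥ 4, q ≥ 3): cut and assembly (helper60).
import Cfsg.Agent.Lib.Helper60.SUG.Defs

/-!
# [GEN]: `SU_n(q) = ⟨c, b⟩` for `n ≥ 4`, `q ≥ 3`

`c` = signed cyclic permutation matrix, `b = g₀ * (c² t c⁻²) * d` with `g₀ = T_{vA, c₀}` a
transvection centred at `vA = e_0 + lam e_1`, `t` a torus element of `SU(⟨e_0, e_1⟩)` with
`t vA = μ vA`, and `d = diag(α, α, α⁻¹, α⁻¹, 1, …, 1)`: three commuting elements of pairwise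
coprime orders.  Coordinates are `0, …, n - 1`.
-/

set_option autoImplicit false

namespace Cfsg.Agent.Lib.Helper60.SUG

open Matrix

universe u

section defs

variable {F : Type u} [Field F] {q n : ℕ}

/-- `e_0 + lam e_1`. -/
def vA (n : ℕ) (lam : F) : Fin n → F :=
  fun i => if (i : ℕ) = 0 then 1 else if (i : ℕ) = 1 then lam else 0

/-- `α e_0 + lam α⁻¹ e_1`. -/
def vB (n : ℕ) (lam α : F) : Fin n → F :=
  fun i => if (i : ℕ) = 0 then α else if (i : ℕ) = 1 then lam * α⁻¹ else 0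

/-- The diagonal `(α, α, α⁻¹, α⁻¹, 1, …, 1)`. -/
def dV (n : ℕ) (α : F) : Fin n → F :=
  fun i => if (i : ℕ) < 2 then α else if (i : ℕ) < 4 then α⁻¹ else 1

/-- `c` is the signed cyclic shift: `(c v)_{i+1} = v_i`, `(c v)_0 = (-1)^(n+1) v_{n-1}`. -/
def IsCyc (c : ↥(Cfsg.SU n F q)) : Prop :=
  (∀ (v : Fin n → F) (i j : Fin n), (j : ℕ) = (i : ℕ) + 1 → (mat c *ᵥ v) j = v i) ∧
  (∀ (v : Fin n → F) (i j : Fin n), (j : ℕ) = 0 → (i : ℕ) + 1 = n →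
    (mat c *ᵥ v) j = (-1) ^ (n + 1) * v i)

/-- `t` is a torus element of `SU(⟨e_0, e_1⟩)` with `t vA = μ vA`. -/
def IsTor (t : ↥(Cfsg.SU n F q)) (lam μ : F) : Prop :=
  mat t *ᵥ vA n lam = μ • vA n lam ∧ (∀ v : Fin n → F, Supp 2 v → Supp 2 (mat t *ᵥ v)) ∧
  (∀ v : Fin n → F, (∀ i : Fin n, (i : ℕ) < 2 → v i = 0) → mat t *ᵥ v = v) ∧
  t ^ orderOf μ = 1

end defs

/-- [GARITH] the field elements `μ` (in the fixed field of `x ↦ x ^ q`) and `α` (of norm 1):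
`q` even: `μ` a generator of `F_q^*`, `α` a generator of the norm-one group;
`q ≡ 1 (mod 4)`: `μ` a generator of `F_q^*`, `α` of order `(q + 1) / 2`;
`q ≡ 3 (mod 4)`: `μ` the square of a generator (odd order `(q - 1) / 2`), `α` a generator of
the norm-one group.  `μ ^ (q + 1) = μ ^ 2`, its powers are the nonzero squares of `F_q` and every
element of `F_q` is a sum of two squares. -/
def PkgGArith : Prop :=
  ∀ {F : Type u} [Field F] [Fintype F] {q : ℕ}, IsPrimePow q → Fintype.card F = q ^ 2 → 3 ≤ q →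
    ∃ μ α : F, μ ≠ 0 ∧ μ ^ q = μ ∧ α ^ (q + 1) = 1 ∧ α ^ 2 ≠ 1 ∧
      (orderOf μ).Coprime (orderOf α) ∧
      (∀ x : F, x ^ q = x →
        x ∈ AddSubmonoid.closure (Set.range fun j : ℕ => (μ ^ (q + 1)) ^ j))

/-- [GEX] `lam` of norm `-1` and a nonzero `c₀` of trace zero. -/
def PkgGEx : Prop :=
  ∀ {F : Type u} [Field F] [Fintype F] {q : ℕ}, Fintype.card F = q ^ 2 →
    ∃ lam c₀ : F, lam ^ (q + 1) = -1 ∧ c₀ ≠ 0 ∧ c₀ ^ q = -c₀

/-- [GORD] orders of units of a finite field are prime to the characteristic. -/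
def PkgGOrd : Prop :=
  ∀ {F : Type u} [Field F] [Fintype F] (x : F), x ≠ 0 → (ringChar F).Coprime (orderOf x)

/-- [GVA] `vA` is a nonzero isotropic vector. -/
def PkgGVA : Prop :=
  ∀ {F : Type u} [Field F] {q n : ℕ}, 2 ≤ n → ∀ lam : F, lam ^ (q + 1) = -1 →
    vA n lam ≠ 0 ∧ Cfsg.hermForm n F q (vA n lam) (vA n lam) = 0

/-- [GHERM] `h(vA, vB) = α⁻¹ - α ≠ 0`. -/
def PkgGHerm : Prop :=
  ∀ {F : Type u} [Field F] {q n : ℕ}, 2 ≤ n → ∀ lam α : F, lam ^ (q + 1) = -1 →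
    α ^ (q + 1) = 1 → α ^ 2 ≠ 1 → Cfsg.hermForm n F q (vA n lam) (vB n lam α) ≠ 0

/-- [GSPAN] `vA`, `vB` span the vectors supported on the coordinates `0, 1`. -/
def PkgGSpan : Prop :=
  ∀ {F : Type u} [Field F] {n : ℕ}, 2 ≤ n → ∀ lam α : F, lam ≠ 0 → α ≠ 0 → α ^ 2 ≠ 1 →
    ∀ v : Fin n → F, Supp 2 v → ∃ a b : F, v = a • vA n lam + b • vB n lam α

/-- [GCYC] the signed cyclic permutation matrix lies in `SU_n`. -/
def PkgGCyc : Prop :=
  ∀ {F : Type u} [Field F] [Fintype F] {q : ℕ}, Fintype.card F = q ^ 2 → ∀ n : ℕ, 1 ≤ n →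
    ∃ c : ↥(Cfsg.SU n F q), IsCyc c

/-- [GSHIFT] the cyclic shift moves supports up by one. -/
def PkgGShift : Prop :=
  ∀ {F : Type u} [Field F] {q n : ℕ} (c : ↥(Cfsg.SU n F q)), IsCyc c →
    ∀ (v : Fin n → F) (m : ℕ), 1 ≤ m → m < n → Supp m v →
    (∃ i : Fin n, (i : ℕ) + 1 = m ∧ v i ≠ 0) →
    Supp (m + 1) (mat c *ᵥ v) ∧ ∃ i : Fin n, (i : ℕ) = m ∧ (mat c *ᵥ v) i ≠ 0

/-- [GTRV] the transvection `T_{vA, c₀}` as an element of `SU_n`, of order dividing the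
characteristic (`Helper13.suMk`, `isHermIso_utransv`, `det_utransv`, `utransv_mul`). -/
def PkgGTrv : Prop :=
  ∀ {F : Type u} [Field F] [Fintype F] {q : ℕ}, Fintype.card F = q ^ 2 → ∀ n : ℕ, 2 ≤ n →
    ∀ lam c₀ : F, lam ^ (q + 1) = -1 → c₀ ^ q = -c₀ →
    ∃ g₀ : ↥(Cfsg.SU n F q), mat g₀ = Cfsg.unitaryTransvection n q (vA n lam) c₀ ∧
      g₀ ^ ringChar F = 1

/-- [GTOR] the torus element: `Helper13.hypDil q (vA n lam) f μ` with
`f = (x + 1) e_0 + lam x e_1`, `x + x ^ q = -1` (then `f` is isotropic and `h(vA, f) = 1`). -/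
def PkgGTor : Prop :=
  ∀ {F : Type u} [Field F] [Fintype F] {q : ℕ}, Fintype.card F = q ^ 2 → ∀ n : ℕ, 2 ≤ n →
    ∀ lam μ : F, lam ^ (q + 1) = -1 → μ ≠ 0 → μ ^ q = μ →
    ∃ t : ↥(Cfsg.SU n F q), IsTor t lam μ

/-- [GDIAG] the diagonal element. -/
def PkgGDiag : Prop :=
  ∀ {F : Type u} [Field F] [Fintype F] {q : ℕ}, Fintype.card F = q ^ 2 → ∀ n : ℕ, 4 ≤ n →
    ∀ α : F, α ^ (q + 1) = 1 →
    ∃ d : ↥(Cfsg.SU n F q), mat d = Matrix.diagonal (dV n α) ∧ d ^ orderOf α = 1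

/-- [GCOMM1] `c² t c⁻²` fixes `vA` (`c⁻² vA` is supported on the last two coordinates, which
`t` fixes as `n ≥ 4`), hence commutes with `T_{vA, c₀}`. -/
def PkgGComm1 : Prop :=
  ∀ {F : Type u} [Field F] [Fintype F] {q : ℕ}, Fintype.card F = q ^ 2 → ∀ n : ℕ, 4 ≤ n →
    ∀ (lam μ c₀ : F) (c g₀ t : ↥(Cfsg.SU n F q)), lam ^ (q + 1) = -1 → c₀ ^ q = -c₀ →
    IsCyc c → mat g₀ = Cfsg.unitaryTransvection n q (vA n lam) c₀ → IsTor t lam μ →
    g₀ * (c * c * t * c⁻¹ * c⁻¹) = (c * c * t * c⁻¹ * c⁻¹) * g₀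

/-- [GCOMM2] `d` acts on `vA` as the scalar `α` of norm 1, hence commutes with `T_{vA, c₀}`. -/
def PkgGComm2 : Prop :=
  ∀ {F : Type u} [Field F] [Fintype F] {q : ℕ}, Fintype.card F = q ^ 2 → ∀ n : ℕ, 4 ≤ n →
    ∀ (lam α c₀ : F) (g₀ d : ↥(Cfsg.SU n F q)), lam ^ (q + 1) = -1 → c₀ ^ q = -c₀ →
    α ^ (q + 1) = 1 → mat g₀ = Cfsg.unitaryTransvection n q (vA n lam) c₀ →
    mat d = Matrix.diagonal (dV n α) → g₀ * d = d * g₀

/-- [GCOMM3] `c² t c⁻²` commutes with `d` (equivalently `t` commutes with the diagonal matrix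
`c⁻² d c²`, which is the scalar `α⁻¹` on the coordinates `0, 1`). -/
def PkgGComm3 : Prop :=
  ∀ {F : Type u} [Field F] [Fintype F] {q : ℕ}, Fintype.card F = q ^ 2 → ∀ n : ℕ, 4 ≤ n →
    ∀ (lam μ α : F) (c t d : ↥(Cfsg.SU n F q)), α ^ (q + 1) = 1 →
    IsCyc c → IsTor t lam μ → mat d = Matrix.diagonal (dV n α) →
    (c * c * t * c⁻¹ * c⁻¹) * d = d * (c * c * t * c⁻¹ * c⁻¹)

/-- [GDCONJ] `c⁻¹ d c` maps `vA = e_0 + lam e_1` to `vB = α e_0 + lam α⁻¹ e_1`. -/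
def PkgGDConj : Prop :=
  ∀ {F : Type u} [Field F] [Fintype F] {q : ℕ}, Fintype.card F = q ^ 2 → ∀ n : ℕ, 4 ≤ n →
    ∀ (lam α : F) (c d : ↥(Cfsg.SU n F q)), α ^ (q + 1) = 1 →
    IsCyc c → mat d = Matrix.diagonal (dV n α) →
    mat (c⁻¹ * d * c) *ᵥ vA n lam = vB n lam α

/-- [COP3] three pairwise commuting elements of pairwise coprime exponents are powers of their
product. -/
def PkgCop3 : Prop :=
  ∀ {G : Type u} [Group G] (x y z : G) (a b c : ℕ), Commute x y → Commute x z → Commute y z →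
    x ^ a = 1 → y ^ b = 1 → z ^ c = 1 → a.Coprime b → a.Coprime c → b.Coprime c →
    x ∈ Subgroup.zpowers (x * y * z) ∧ y ∈ Subgroup.zpowers (x * y * z) ∧
      z ∈ Subgroup.zpowers (x * y * z)

/-- [GEN] from its leaves. -/
theorem pkgGen_of (hConj : PkgConj.{u}) (hLine : PkgLine.{u}) (hFill : PkgFill.{u})
    (hChain : Chain.{u}) (hArith : PkgGArith.{u}) (hEx : PkgGEx.{u}) (hOrd : PkgGOrd.{u})
    (hVA : PkgGVA.{u}) (hHerm : PkgGHerm.{u}) (hSpan : PkgGSpan.{u}) (hCyc : PkgGCyc.{u})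
    (hShift : PkgGShift.{u}) (hTrv : PkgGTrv.{u}) (hTor : PkgGTor.{u}) (hDiag : PkgGDiag.{u})
    (hC1 : PkgGComm1.{u}) (hC2 : PkgGComm2.{u}) (hC3 : PkgGComm3.{u}) (hDC : PkgGDConj.{u})
    (hCop : PkgCop3.{u}) : PkgGen.{u} := by
  intro F _ _ q hq hF n hn hq3
  obtain ⟨μ, α, hμ0, hμq, hα1, hα2, hcop, hcl⟩ := hArith hq hF hq3
  obtain ⟨lam, c₀, hlam, hc₀0, hc₀⟩ := hEx (q := q) hF
  have hα0 : α ≠ 0 := by
    rintro rfl
    rw [zero_pow (by omega)] at hα1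
    exact zero_ne_one hα1
  have hlam0 : lam ≠ 0 := by
    rintro rfl
    rw [zero_pow (by omega)] at hlam
    have h1 : (1 : F) = 0 := by linear_combination hlam
    exact one_ne_zero h1
  obtain ⟨c, hc⟩ := hCyc (q := q) hF n (by omega)
  obtain ⟨g₀, hg₀, hg₀p⟩ := hTrv hF n (by omega) lam c₀ hlam hc₀
  obtain ⟨t, ht⟩ := hTor hF n (by omega) lam μ hlam hμ0 hμq
  obtain ⟨d, hd, hdo⟩ := hDiag hF n hn α hα1
  obtain ⟨hvA0, hvAiso⟩ := hVA (q := q) (n := n) (by omega) lam hlam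
  set t' : ↥(Cfsg.SU n F q) := c * c * t * c⁻¹ * c⁻¹ with ht'
  set b : ↥(Cfsg.SU n F q) := g₀ * t' * d with hb
  set K : Subgroup ↥(Cfsg.SU n F q) := Subgroup.closure {c, b} with hK
  have hcK : c ∈ K := Subgroup.subset_closure (by simp)
  have hbK : b ∈ K := Subgroup.subset_closure (by simp)
  -- the three factors of `b` are powers of `b`
  have ht'o : t' ^ orderOf μ = 1 := by
    have h1 : t' = (c * c) * t * (c * c)⁻¹ := by
      rw [ht']; group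
    rw [h1, conj_pow, ht.2.2.2]
    group
  obtain ⟨h1, h2, h3⟩ := hCop g₀ t' d (ringChar F) (orderOf μ) (orderOf α)
    (hC1 hF n hn lam μ c₀ c g₀ t hlam hc₀ hc hg₀ ht)
    (hC2 hF n hn lam α c₀ g₀ d hlam hc₀ hα1 hg₀ hd)
    (hC3 hF n hn lam μ α c t d hα1 hc ht hd)
    hg₀p ht'o hdo (hOrd μ hμ0) (hOrd α hα0) hcop
  have hzp : Subgroup.zpowers b ≤ K := by
    rw [Subgroup.zpowers_le]; exact hbK
  have hg₀K : g₀ ∈ K := hzp h1
  have ht'K : t' ∈ K := hzp h2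
  have hdK : d ∈ K := hzp h3
  have htK : t ∈ K := by
    have h4 : t = c⁻¹ * c⁻¹ * t' * c * c := by
      rw [ht']; group
    rw [h4]
    exact K.mul_mem (K.mul_mem (K.mul_mem (K.mul_mem (K.inv_mem hcK) (K.inv_mem hcK)) ht'K) hcK)
      hcK
  -- `vA` and `vB` are centres
  have hA : Ctr K (vA n lam) :=
    hFill hF K (vA n lam) hvA0 hvAiso g₀ c₀ hg₀K hc₀0 hc₀ hg₀ t μ htK ht.1 hcl
  have hd'K : c⁻¹ * d * c ∈ K := K.mul_mem (K.mul_mem (K.inv_mem hcK) hdK) hcK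
  have hB : Ctr K (vB n lam α) := by
    have h5 := hConj hF K (vA n lam) hA (c⁻¹ * d * c) hd'K
    rwa [hDC hF n hn lam α c d hα1 hc hd] at h5
  -- all isotropic vectors supported on the coordinates `0, 1` are centres
  have hbase : ∀ v : Fin n → F, v ≠ 0 → Cfsg.hermForm n F q v v = 0 → Supp 2 v → Ctr K v := by
    intro v hv0 hviso hvs
    obtain ⟨a, b', rfl⟩ := hSpan (n := n) (by omega) lam α hlam0 hα0 hα2 v hvs
    exact hLine hF K (vA n lam) (vB n lam α) hA hB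
      (hHerm (q := q) (n := n) (by omega) lam α hlam hα1 hα2) a b' hv0 hviso
  -- the shifted centres
  have hshift : ∀ k : ℕ, k + 2 ≤ n →
      ∃ x : Fin n → F, Ctr K x ∧ Supp (k + 2) x ∧ ∃ i : Fin n, (i : ℕ) = k + 1 ∧ x i ≠ 0 := by
    intro k
    induction k with
    | zero =>
      intro _
      refine ⟨vA n lam, hA, ?_, ⟨1, by omega⟩, rfl, ?_⟩
      · intro i hi
        have h6 : (i : ℕ) ≠ 0 := by omega
        have h7 : (i : ℕ) ≠ 1 := by omega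
        simp [vA, h6, h7]
      · simp [vA, hlam0]
    | succ k ih =>
      intro hk
      obtain ⟨x, hx, hxs, i, hi, hxi⟩ := ih (by omega)
      obtain ⟨h8, h9⟩ := hShift c hc x (k + 2) (by omega) (by omega) hxs ⟨i, by omega, hxi⟩
      exact ⟨mat c *ᵥ x, hConj hF K x hx c hcK, h8, h9⟩
  have hKtop : K = ⊤ := by
    refine hChain hF (by omega) K 2 le_rfl (by omega) (by omega) hbase ?_
    intro j hj hjn
    obtain ⟨x, hx, hxs, hxi⟩ := hshift (j - 1) (by omega)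
    have h10 : j - 1 + 2 = j + 1 := by omega
    have h11 : j - 1 + 1 = j := by omega
    rw [h10] at hxs
    rw [h11] at hxi
    exact ⟨x, hx, hxs, hxi⟩
  exact ⟨c, b, hKtop⟩

end Cfsg.Agent.Lib.Helper60.SUG
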